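import Cfsg.Agent.Lib.Helper45.AutAbs

/-! OF4 ladder, rung NA: an automorphism fixing `X_a` and a fixed point free torus element
fixes `n_a`. -/

set_option autoImplicit false

namespace Cfsg.Agent.Lib.Helper22.OF4
open Cfsg.Agent.Lib.Helper45.AutAbs

variable {G : Type*} [Group G]

/-- [NA] an automorphism fixing `X_a` and a fixed point free torus element fixes `n_a` -/
theorem na_fixed {B V Xa : Subgroup G} (BV : ∀ g, g ∈ B → g ∈ V → g = 1) (hXB : Xa ≤ B)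
    (na h u1 v u2 : G) (hu1 : u1 ∈ Xa) (hv : v ∈ V) (hu2 : u2 ∈ Xa) (na_eq : na = u1 * v * u2)
    (na_dc : ∀ b ∈ B, ∃ b' ∈ B, ∃ x ∈ Xa, na * b = b' * na * x)
    (na_X : ∀ x ∈ Xa, na * x * na⁻¹ ∈ V)
    (na_h : na * h * na⁻¹ ∈ B) (hX : ∀ x ∈ Xa, h⁻¹ * x * h ∈ Xa) (fpf : ∀ x ∈ Xa, h⁻¹ * x * h = x → x = 1)
    (θ : G ≃* G) (hB : Mp θ B B) (hV : Mp θ V V) (hθX : ∀ x ∈ Xa, θ x = x) (hθh : θ h = h)
    (hdc : ∃ b ∈ B, ∃ b' ∈ B, θ na = b * na * b') : θ na = na := by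
  obtain ⟨b, hb, b', hb', hθ⟩ := hdc
  obtain ⟨b'', hb'', x, hx, hnb⟩ := na_dc b' hb'
  have hθ1 : θ na = (b * b'') * na * x := by
    rw [hθ, mul_assoc b na b', hnb]; group
  set b1 := b * b'' with hb1def
  have hb1 : b1 ∈ B := B.mul_mem hb hb''
  set h' := na * h * na⁻¹ with hh'
  have hθh' : θ h' ∈ B := (hB h').2 na_h
  have e1 : θ na * h = θ h' * θ na := by
    have : na * h = h' * na := by rw [hh']; group
    have h2 := congrArg θ this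
    rwa [map_mul, map_mul, hθh] at h2
  rw [hθ1] at e1
  -- key element
  have hy : (h⁻¹ * x * h) * x⁻¹ ∈ Xa := Xa.mul_mem (hX x hx) (Xa.inv_mem hx)
  have e2 : na * ((h⁻¹ * x * h) * x⁻¹) * na⁻¹ = h'⁻¹ * b1⁻¹ * θ h' * b1 := by
    have e3 : θ h' = b1 * na * x * h * (b1 * na * x)⁻¹ := by
      rw [e1]; group
    rw [e3, hh']; group
  have hBm : na * ((h⁻¹ * x * h) * x⁻¹) * na⁻¹ ∈ B := by
    rw [e2]
    exact B.mul_mem (B.mul_mem (B.mul_mem (B.inv_mem na_h) (B.inv_mem hb1)) hθh') hb1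
  have h1 := BV _ hBm (na_X _ hy)
  have h2 : (h⁻¹ * x * h) * x⁻¹ = 1 := by
    have : (h⁻¹ * x * h) * x⁻¹ = na⁻¹ * (na * ((h⁻¹ * x * h) * x⁻¹) * na⁻¹) * na := by group
    rw [this, h1]; group
  have hx1 : x = 1 := fpf x hx (mul_inv_eq_one.1 h2)
  rw [hx1, mul_one] at hθ1
  have e4 : θ na = u1 * θ v * u2 := by
    rw [na_eq, map_mul, map_mul, hθX u1 hu1, hθX u2 hu2]
  have e5 : θ v * v⁻¹ = u1⁻¹ * b1 * u1 := by
    have : u1 * θ v * u2 = b1 * (u1 * v * u2) := by rw [← e4, hθ1, ← na_eq]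
    have h3 : θ v = u1⁻¹ * (u1 * θ v * u2) * u2⁻¹ := by group
    rw [h3, this]; group
  have h6 : θ v * v⁻¹ = 1 := by
    apply BV
    · rw [e5]
      exact B.mul_mem (B.mul_mem (B.inv_mem (hXB hu1)) hb1) (hXB hu1)
    · exact V.mul_mem ((hV v).2 hv) (V.inv_mem hv)
  rw [e4, mul_inv_eq_one.1 h6, ← na_eq]

end Cfsg.Agent.Lib.Helper22.OF4
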