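import Mathlib

/-! OF4 ladder, rung SZ: automorphisms of a root subgroup of Suzuki type commuting with a torus. -/

set_option autoImplicit false

namespace Cfsg.Agent.Lib.Helper22.OF4

variable {G : Type*} [Group G] {K : Type*} [Field K]

/-- `s ↦ s * Θ s` is injective. -/
private theorem sz_nu_inj (Θ : K →+* K) (hΘ : ∀ t, Θ (Θ t) ^ 2 = t) :
    Function.Injective (fun s : K => s * Θ s) := by
  have key : ∀ w : K, w ≠ 0 → w * Θ w = 1 → w = 1 := by
    intro w hw h1
    have h2 : Θ w = w⁻¹ := eq_inv_of_mul_eq_one_right h1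
    have h3 : Θ (Θ w) = w := by rw [h2, map_inv₀, h2, inv_inv]
    have h4 := hΘ w
    rw [h3, sq] at h4
    exact mul_left_cancel₀ hw (by rw [h4, mul_one])
  intro a b hab
  simp only at hab
  by_cases hb : b = 0
  · subst hb
    simp only [map_zero, mul_zero, mul_eq_zero] at hab
    rcases hab with h | h
    · exact h
    · exact (map_eq_zero Θ).1 h
  · have hΘb : Θ b ≠ 0 := fun h => hb ((map_eq_zero Θ).1 h)
    have ha : a ≠ 0 := by
      rintro rfl
      simp only [map_zero, mul_zero] at hab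
      exact (mul_ne_zero hb hΘb) hab.symm
    have h1 : (a / b) * Θ (a / b) = 1 := by
      rw [map_div₀, div_mul_div_comm, hab, div_self (mul_ne_zero hb hΘb)]
    have h2 := key (a / b) (div_ne_zero ha hb) h1
    exact (div_eq_one_iff_eq hb).1 h2

/-- [SZ] automorphisms of a root subgroup of Suzuki type commuting with a torus -/
theorem sz [Finite K] [CharP K 2] (Θ : K →+* K) (hΘ : ∀ t, Θ (Θ t) ^ 2 = t) (hΘ1 : ∃ s, Θ s ≠ s)
    (xa : K → K → G) (h : K → G)
    (xa_mul : ∀ t u t' u', xa t u * xa t' u' = xa (t + t') (u + u' + Θ t * t'))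
    (xa_inj : ∀ t u t' u', xa t u = xa t' u' → t = t' ∧ u = u')
    (h_act : ∀ c, c ≠ 0 → ∀ t u, h c * xa t u * (h c)⁻¹ = xa (c⁻¹ * t) ((c * Θ c)⁻¹ * u))
    (θ : G ≃* G) (hθX : ∀ t u, ∃ t' u', θ (xa t u) = xa t' u')
    (hθX' : ∀ t u, ∃ t' u', θ (xa t' u') = xa t u)
    (hθh : ∀ c, c ≠ 0 → θ (h c) = h c) :
    ∃ d, d ≠ 0 ∧ ∀ t u, θ (xa t u) = xa (d * t) (d * Θ d * u) := by
  have hνs : Function.Surjective (fun s : K => s * Θ s) :=
    Finite.injective_iff_surjective.1 (sz_nu_inj Θ hΘ)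
  choose F Gf hF using hθX
  -- homomorphism property
  have hAB : ∀ t u t' u', F (t + t') (u + u' + Θ t * t') = F t u + F t' u' ∧
      Gf (t + t') (u + u' + Θ t * t') = Gf t u + Gf t' u' + Θ (F t u) * F t' u' := by
    intro t u t' u'
    have h1 := congrArg θ (xa_mul t u t' u')
    rw [map_mul, hF, hF, hF, xa_mul] at h1
    have := xa_inj _ _ _ _ h1
    exact ⟨this.1.symm, this.2.symm⟩
  -- equivariance
  have hCD : ∀ c, c ≠ 0 → ∀ t u, F (c⁻¹ * t) ((c * Θ c)⁻¹ * u) = c⁻¹ * F t u ∧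
      Gf (c⁻¹ * t) ((c * Θ c)⁻¹ * u) = (c * Θ c)⁻¹ * Gf t u := by
    intro c hc t u
    have h1 := congrArg θ (h_act c hc t u)
    rw [map_mul, map_mul, map_inv, hθh c hc, hF, hF, h_act c hc] at h1
    have := xa_inj _ _ _ _ h1
    exact ⟨this.1.symm, this.2.symm⟩
  -- the centre
  have hcen : ∀ t u, (∀ t' u', xa t u * xa t' u' = xa t' u' * xa t u) → t = 0 := by
    intro t u hc
    by_contra ht
    obtain ⟨s, hs⟩ := hΘ1
    have h1 := hc (t * s) 0
    rw [xa_mul, xa_mul] at h1
    have h2 := (xa_inj _ _ _ _ h1).2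
    have h3 : Θ t * (t * s) = Θ (t * s) * t := by
      have : u + 0 + Θ t * (t * s) = u + 0 + Θ (t * s) * t := by
        rw [h2]; ring
      exact add_left_cancel this
    rw [map_mul] at h3
    have hΘt : Θ t ≠ 0 := fun h => ht ((map_eq_zero Θ).1 h)
    have h4 : (Θ t * t) * s = (Θ t * t) * Θ s := by
      rw [mul_assoc, h3]; ring
    exact hs (mul_left_cancel₀ (mul_ne_zero hΘt ht) h4).symm
  have hF0 : ∀ u, F 0 u = 0 := by
    intro u
    apply hcen (F 0 u) (Gf 0 u)
    intro t' u'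
    obtain ⟨t'', u'', h1⟩ := hθX' t' u'
    rw [← hF, ← h1, ← map_mul, ← map_mul, xa_mul, xa_mul]
    congr 2
    · ring
    · simp only [map_zero, zero_mul, mul_zero]; ring
  have hFu : ∀ t u, F t u = F t 0 := by
    intro t u
    have h1 := (hAB t 0 0 u).1
    rw [hF0, add_zero, add_zero, mul_zero, add_zero, zero_add] at h1
    exact h1
  set f : K → K := fun t => F t 0 with hf
  have hfadd : ∀ t t', f (t + t') = f t + f t' := by
    intro t t'
    have h1 := (hAB t 0 t' 0).1
    rw [hFu] at h1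
    exact h1
  have hf0 : f 0 = 0 := hF0 0
  have hfs : ∀ t, f t = f 1 * t := by
    intro t
    by_cases ht : t = 0
    · rw [ht, hf0, mul_zero]
    · have h1 := (hCD t⁻¹ (inv_ne_zero ht) 1 0).1
      rw [inv_inv, mul_one, hFu] at h1
      rw [mul_comm]; exact h1
  set d := f 1 with hd
  have hd0 : d ≠ 0 := by
    intro hd0
    obtain ⟨t', u', h1⟩ := hθX' 1 0
    rw [hF] at h1
    have h2 := (xa_inj _ _ _ _ h1).1
    rw [hFu] at h2
    have h3 : f t' = 1 := h2
    rw [hfs, hd0, zero_mul] at h3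
    exact zero_ne_one h3
  have hFd : ∀ t u, F t u = d * t := fun t u => by rw [hFu]; exact hfs t
  -- the second coordinate
  set Z : K → K := fun u => Gf 0 u with hZ
  set g : K → K := fun t => Gf t 0 with hg
  have hGf : ∀ t u, Gf t u = g t + Z u := by
    intro t u
    have h1 := (hAB t 0 0 u).2
    rw [hF0, add_zero, mul_zero, mul_zero, add_zero, add_zero, zero_add] at h1
    exact h1
  have hZν : ∀ t, Z (t * Θ t) = d * Θ d * (t * Θ t) := by
    intro t
    have h1 := (hAB t 0 t 0).2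
    rw [CharTwo.add_self_eq_zero, CharTwo.add_self_eq_zero, CharTwo.add_self_eq_zero, zero_add,
      zero_add, hFd, map_mul] at h1
    have h2 : Z (t * Θ t) = Gf 0 (Θ t * t) := by rw [mul_comm]
    rw [h2, h1]; ring
  have hZu : ∀ u, Z u = d * Θ d * u := by
    intro u
    obtain ⟨t, rfl⟩ := hνs u
    exact hZν t
  have hgadd : ∀ t t', g (t + t') = g t + g t' := by
    intro t t'
    have h1 := (hAB t 0 t' 0).2
    rw [hGf, hZu, hFd, hFd, map_mul, add_zero, zero_add] at h1
    have h2 : g (t + t') + d * Θ d * (Θ t * t') = (g t + g t') + d * Θ d * (Θ t * t') := by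
      rw [h1]; ring
    exact add_right_cancel h2
  have hgs : ∀ s, s ≠ 0 → ∀ t, g (s * t) = s * Θ s * g t := by
    intro s hs t
    have h1 := (hCD s⁻¹ (inv_ne_zero hs) t 0).2
    rw [inv_inv, mul_zero, map_inv₀, ← mul_inv, inv_inv] at h1
    exact h1
  have hg0 : ∀ t, g t = 0 := by
    intro t0
    by_contra hne
    obtain ⟨s, hs⟩ := hΘ1
    apply hs
    have hs0 : s ≠ 0 := by rintro rfl; exact hs (map_zero Θ)
    have hs1 : s + 1 ≠ 0 := by
      intro h1
      have : s = 1 := CharTwo.add_eq_zero.1 h1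
      exact hs (by rw [this, map_one])
    have h1 := hgadd (s * t0) t0
    have h2 : s * t0 + t0 = (s + 1) * t0 := by ring
    rw [h2, hgs _ hs1, hgs _ hs0, map_add, map_one] at h1
    have h3 : ((s + 1) * (Θ s + 1)) * g t0 = (s * Θ s + 1) * g t0 := by
      rw [h1]; ring
    have h4 := mul_right_cancel₀ hne h3
    have h5 : Θ s + s = 0 := by
      have : (s * Θ s + 1) + (Θ s + s) = (s * Θ s + 1) + 0 := by
        rw [add_zero]
        calc (s * Θ s + 1) + (Θ s + s) = (s + 1) * (Θ s + 1) := by ring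
          _ = s * Θ s + 1 := h4
      exact add_left_cancel this
    exact CharTwo.add_eq_zero.1 h5
  refine ⟨d, hd0, fun t u => ?_⟩
  rw [hF, hFd, hGf, hg0, hZu, zero_add]

end Cfsg.Agent.Lib.Helper22.OF4
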